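import Mathlib

/-!
# Abelian `p'`-subgroups of linear groups in characteristic `p`

The normalizer modulo the centralizer of such a subgroup is bounded in terms of the dimension.
-/

set_option autoImplicit false

universe u v

namespace CfsgLib.BrauerCharacters.JordanP

open Module
open scoped IsMulCommutative

variable {H : Type u} [Group H] {K : Type v} [Field K] {V : Type v} [AddCommGroup V] [Module K V]

/-- A commutative subgroup all of whose elements have order prime to `p`. -/
def IsPAb (p : ℕ) (T : Subgroup H) : Prop :=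
  IsMulCommutative T ∧ ∀ t ∈ T, (orderOf t).Coprime p

theorem IsPAb.comm {p : ℕ} {T : Subgroup H} (hT : IsPAb p T) {a b : H} (ha : a ∈ T) (hb : b ∈ T) :
    a * b = b * a :=
  haveI := hT.1
  Subgroup.mul_comm_of_mem_isMulCommutative T ha hb

theorem not_isNilpotent_sub_one {p : ℕ} [hp : Fact p.Prime] [Nontrivial V] [CharP K p]
    (ρ : H →* Module.End K V) (hρ : Function.Injective ρ) {t : H} (ht : (orderOf t).Coprime p)
    (h1 : t ≠ 1) : ¬ IsNilpotent (ρ t - 1) := by
  have : CharP (Module.End K V) p :=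
    charP_of_injective_algebraMap (algebraMap K (Module.End K V)).injective p
  rintro ⟨k, hk⟩
  have hk' : (ρ t - 1) ^ p ^ k = 0 :=
    pow_eq_zero_of_le (Nat.lt_pow_self hp.out.one_lt).le hk
  rw [sub_pow_char_pow_of_commute (p := p) (h := Commute.one_right (ρ t)), one_pow, sub_eq_zero,
    ← map_pow, ← map_one ρ] at hk'
  have hd : orderOf t ∣ p ^ k := orderOf_dvd_of_pow_eq_one (hρ hk')
  exact h1 (orderOf_eq_one_iff.mp (Nat.eq_one_of_dvd_coprimes (ht.pow_right k) dvd_rfl hd))

/-- Elements centralizing `S` centralize `A` when `ρ S` and `ρ A` span the same space. -/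
theorem centralizer_le_of_span_eq (ρ : H →* Module.End K V) (hρ : Function.Injective ρ)
    {S A : Subgroup H}
    (h : Submodule.span K (ρ '' (A : Set H)) ≤ Submodule.span K (ρ '' (S : Set H))) :
    Subgroup.centralizer (S : Set H) ≤ Subgroup.centralizer (A : Set H) := by
  intro x hx
  rw [Subgroup.mem_centralizer_iff] at hx ⊢
  intro a ha
  have hmem : ρ a ∈ Submodule.span K (ρ '' (S : Set H)) :=
    h (Submodule.subset_span ⟨a, ha, rfl⟩)
  have : ρ a * ρ x = ρ x * ρ a := by
    refine Submodule.span_induction (p := fun f _ => f * ρ x = ρ x * f) ?_ ?_ ?_ ?_ hmem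
    · rintro _ ⟨s, hs, rfl⟩
      rw [← map_mul, ← map_mul, hx s hs]
    · simp
    · intro f g _ _ hf hg; rw [add_mul, mul_add, hf, hg]
    · intro c f _ hf; rw [smul_mul_assoc, mul_smul_comm, hf]
  exact hρ (by rw [map_mul, map_mul, this])

/-- A non-nilpotent element of a finite-dimensional commutative algebra over an algebraically
closed field is not killed by some algebra homomorphism. -/
theorem exists_algHom_ne_zero {R : Type v} [CommRing R] [Algebra K R] [IsAlgClosed K]
    [FiniteDimensional K R] {a : R} (ha : ¬ IsNilpotent a) : ∃ χ : R →ₐ[K] K, χ a ≠ 0 := by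
  rw [nilpotent_iff_mem_prime] at ha
  push_neg at ha
  obtain ⟨P, hP, haP⟩ := ha
  have : IsDomain (R ⧸ P) := Ideal.Quotient.isDomain P
  let e := AlgEquiv.ofBijective (Algebra.ofId K (R ⧸ P))
    (IsAlgClosed.algebraMap_bijective_of_isIntegral (k := K) (K := R ⧸ P))
  refine ⟨e.symm.toAlgHom.comp (Ideal.Quotient.mkₐ K P), fun h => haP ?_⟩
  exact Ideal.Quotient.eq_zero_iff_mem.mp (e.symm.map_eq_zero_iff.mp h)

/-- Conjugation by `ρ g` as an algebra endomorphism. -/
def conjAlg (ρ : H →* Module.End K V) (g : H) : Module.End K V →ₐ[K] Module.End K V where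
  toFun f := ρ g * f * ρ g⁻¹
  map_one' := by rw [mul_one, ← map_mul, mul_inv_cancel, map_one]
  map_mul' f h := by
    have : ρ g⁻¹ * ρ g = 1 := by rw [← map_mul, inv_mul_cancel, map_one]
    calc ρ g * (f * h) * ρ g⁻¹ = ρ g * f * 1 * h * ρ g⁻¹ := by simp [mul_assoc]
      _ = _ := by rw [← this]; simp [mul_assoc]
  map_zero' := by simp
  map_add' f h := by simp [mul_add, add_mul]
  commutes' c := by
    rw [← Algebra.commutes c (ρ g), mul_assoc, ← map_mul ρ, mul_inv_cancel, map_one, mul_one]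

theorem relIndex_centralizer_normalizer_le {p n : ℕ} [hp : Fact p.Prime] [Finite H] [CharP K p]
    [IsAlgClosed K] [FiniteDimensional K V] (hdim : finrank K V ≤ n)
    (ρ : H →* Module.End K V) (hρ : Function.Injective ρ) {T : Subgroup H} (hT : IsPAb p T) :
    (Subgroup.centralizer (T : Set H)).relIndex (Subgroup.normalizer (T : Set H)) ≤
      (n * n + 1) ^ (n * n) := by
  rcases subsingleton_or_nontrivial V with hV | hV
  · have : Subsingleton H := ⟨fun a b => hρ (Subsingleton.elim _ _)⟩
    rw [Subsingleton.elim (Subgroup.centralizer (T : Set H))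
      (Subgroup.normalizer (T : Set H)), Subgroup.relIndex_self]
    exact Nat.one_le_pow _ _ (by omega)
  have hcomm : ∀ a ∈ ρ '' (T : Set H), ∀ b ∈ ρ '' (T : Set H), a * b = b * a := by
    rintro _ ⟨a, ha, rfl⟩ _ ⟨b, hb, rfl⟩
    rw [← map_mul, ← map_mul, hT.comm ha hb]
  set R := Algebra.adjoin K (ρ '' (T : Set H)) with hR
  have : IsMulCommutative R := Algebra.isMulCommutative_adjoin K hcomm
  set N := Subgroup.normalizer (T : Set H)
  have hmem : ∀ t, t ∈ T → ρ t ∈ R := fun t ht => Algebra.subset_adjoin ⟨t, ht, rfl⟩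
  have hg : ∀ g : N, ∀ f ∈ R, conjAlg ρ g f ∈ R := by
    intro g f hf
    have : R ≤ R.comap (conjAlg ρ g) := by
      refine Algebra.adjoin_le ?_
      rintro _ ⟨t, ht, rfl⟩
      change ρ g * ρ t * ρ (g : H)⁻¹ ∈ R
      rw [← map_mul, ← map_mul]
      exact hmem _ ((Subgroup.mem_normalizer_iff.mp g.2 t).mp ht)
    exact this hf
  let act : N → (R →ₐ[K] K) → (R →ₐ[K] K) := fun g χ =>
    χ.comp (((conjAlg ρ g).comp R.val).codRestrict R (fun f => hg g f f.2))
  let Φ : N ⧸ (Subgroup.centralizer (T : Set H)).subgroupOf N → ((R →ₐ[K] K) → (R →ₐ[K] K)) :=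
    fun q => act q.out
  have hinj : Function.Injective Φ := by
    intro q r hqr
    rw [← q.out_eq, ← r.out_eq]
    apply QuotientGroup.eq.mpr
    rw [Subgroup.mem_subgroupOf, Subgroup.mem_centralizer_iff]
    intro t ht
    set g := q.out
    set h := r.out
    have hgt : (g : H) * t * (g : H)⁻¹ ∈ T := (Subgroup.mem_normalizer_iff.mp g.2 t).mp ht
    have hht : (h : H) * t * (h : H)⁻¹ ∈ T := (Subgroup.mem_normalizer_iff.mp h.2 t).mp ht
    set a := (g : H) * t * (g : H)⁻¹ with ha
    set b := (h : H) * t * (h : H)⁻¹ with hb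
    have hab : a = b := by
      by_contra hne
      have h1 : a * b⁻¹ ≠ 1 := fun h => hne (mul_inv_eq_one.mp h)
      have hm : a * b⁻¹ ∈ T := T.mul_mem hgt (T.inv_mem hht)
      have hnil : ¬ IsNilpotent ((⟨ρ (a * b⁻¹), hmem _ hm⟩ : R) - 1) := fun h' =>
        not_isNilpotent_sub_one ρ hρ (hT.2 _ hm) h1 (by simpa using h'.map R.val)
      obtain ⟨χ, hχ⟩ := exists_algHom_ne_zero (K := K) hnil
      have e1 := congrArg (fun φ : R →ₐ[K] K => φ ⟨ρ t, hmem t ht⟩) (congrFun hqr χ)
      have e2 : χ ⟨ρ a, hmem a hgt⟩ = χ ⟨ρ b, hmem b hht⟩ := by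
        simp only [Φ, act, AlgHom.comp_apply] at e1
        convert e1 using 2 <;> apply Subtype.ext <;>
          simp [conjAlg, ha, hb, g, h, map_mul]
      apply hχ
      have e3 : (⟨ρ (a * b⁻¹), hmem _ hm⟩ : R) * ⟨ρ b, hmem b hht⟩ = ⟨ρ a, hmem a hgt⟩ :=
        Subtype.ext (by simp [← map_mul])
      have e4 : (⟨ρ b, hmem b hht⟩ : R) * ⟨ρ b⁻¹, hmem _ (T.inv_mem hht)⟩ = 1 :=
        Subtype.ext (by simp [← map_mul])
      have e5 := congrArg χ e3
      rw [map_mul, e2] at e5
      have e6 := congrArg χ e4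
      rw [map_mul, map_one] at e6
      rw [map_sub, map_one, mul_right_cancel₀ (left_ne_zero_of_mul_eq_one e6)
        (e5.trans (one_mul _).symm), sub_self]
    rw [ha, hb] at hab
    simp only [Subgroup.coe_mul, Subgroup.coe_inv]
    have h7 := congrArg (fun y => (g : H)⁻¹ * y * (h : H)) hab
    simp only [mul_assoc, inv_mul_cancel_left, inv_mul_cancel, mul_one] at h7
    simpa [mul_assoc] using h7
  have hfin : finrank K R ≤ n * n := by
    refine (Submodule.finrank_le (Subalgebra.toSubmodule R)).trans ?_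
    rw [Module.finrank_linearMap]
    exact Nat.mul_le_mul hdim hdim
  have hcard : Nat.card (R →ₐ[K] K) ≤ n * n :=
    (card_algHom_le_finrank K R K).trans hfin
  calc _ = Nat.card (N ⧸ (Subgroup.centralizer (T : Set H)).subgroupOf N) := rfl
    _ ≤ Nat.card ((R →ₐ[K] K) → (R →ₐ[K] K)) := Nat.card_le_card_of_injective _ hinj
    _ = Nat.card (R →ₐ[K] K) ^ Nat.card (R →ₐ[K] K) := Nat.card_fun
    _ ≤ _ := (Nat.pow_le_pow_left (hcard.trans (Nat.le_succ _)) _).trans
      (Nat.pow_le_pow_right (by omega) hcard)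

end CfsgLib.BrauerCharacters.JordanP
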