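import Cfsg.Agent.Lib.BrauerCharacters.JordanP.Centralizer
import Cfsg.Agent.Lib.BrauerCharacters.JordanP.Torus

/-!
# Stable abelian `p'`-subgroups and the cells they define
-/

set_option autoImplicit false

universe u v

namespace CfsgLib.BrauerCharacters.JordanP

open Module

variable {H : Type u} [Group H] {K : Type v} [Field K] {V : Type v} [AddCommGroup V] [Module K V]
  {ρ : H →* Module.End K V} {p Q : ℕ}

/-- A non-scalar abelian `p'`-subgroup whose centralizer is not enlarged by passing to a subgroup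
of index at most `Q`. -/
def Stable (ρ : H →* Module.End K V) (p Q : ℕ) (T : Subgroup H) : Prop :=
  IsPAb p T ∧ ¬ T ≤ scalarSub ρ ∧ ∀ S ≤ T, S.relIndex T ≤ Q →
    Subgroup.centralizer (S : Set H) ≤ Subgroup.centralizer (T : Set H)

/-- Every non-scalar element has an abelian subgroup of index at most `Q` in its centralizer. -/
def CentBound (ρ : H →* Module.End K V) (Q : ℕ) : Prop :=
  ∀ x, x ∉ scalarSub ρ → ∃ N : Subgroup H, N ≤ Subgroup.centralizer {x} ∧ IsMulCommutative N ∧
    N.relIndex (Subgroup.centralizer {x}) ≤ Q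

/-- The elements attached to a cell. -/
def cellSet (ρ : H →* Module.End K V) (p Q : ℕ) (T : Subgroup H) : Set H :=
  {x | x ∈ Subgroup.normalizer (T : Set H) ∧
    ∃ S, Stable ρ p Q S ∧ S ≤ T ∧ x ∈ Subgroup.centralizer (S : Set H)}

variable [Finite H]

theorem Stable.le_centralizer_of_le_centralizer (hc : CentBound ρ Q) {T₁ T₂ : Subgroup H}
    (h₁ : Stable ρ p Q T₁) (h₂ : Stable ρ p Q T₂) {x : H} (hx : x ∉ scalarSub ρ)
    (h1 : T₁ ≤ Subgroup.centralizer {x}) (h2 : T₂ ≤ Subgroup.centralizer {x}) :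
    T₁ ≤ Subgroup.centralizer (T₂ : Set H) := by
  obtain ⟨N, _, hNc, hNi⟩ := hc x hx
  have key : ∀ T, Stable ρ p Q T → T ≤ Subgroup.centralizer {x} →
      Subgroup.centralizer ((T ⊓ N : Subgroup H) : Set H) ≤ Subgroup.centralizer (T : Set H) := by
    intro T hT hTx
    refine hT.2.2 _ inf_le_left ?_
    rw [inf_comm, Subgroup.inf_relIndex_right]
    exact (Subgroup.relIndex_le_of_le_right hTx Subgroup.FiniteIndex.index_ne_zero).trans hNi
  have h3 : T₁ ⊓ N ≤ Subgroup.centralizer (T₂ : Set H) := by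
    refine le_trans (fun a ha => ?_) (key T₂ h₂ h2)
    rw [Subgroup.mem_centralizer_iff]
    intro b hb
    exact Subgroup.mul_comm_of_mem_isMulCommutative N hb.2 ha.2
  -- hence `T₂` centralizes `T₁ ⊓ N`, so it centralizes `T₁`
  exact Subgroup.le_centralizer_iff.mp ((Subgroup.le_centralizer_iff.mp h3).trans (key T₁ h₁ h1))

theorem Stable.sup {T₁ T₂ : Subgroup H} (h₁ : Stable ρ p Q T₁) (h₂ : Stable ρ p Q T₂)
    (h : T₁ ≤ Subgroup.centralizer (T₂ : Set H)) : Stable ρ p Q (T₁ ⊔ T₂) := by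
  have hcomm : IsMulCommutative (T₁ ⊔ T₂ : Subgroup H) := by
    rw [Subgroup.sup_eq_closure]
    refine Subgroup.isMulCommutative_closure ?_
    rintro a (ha | ha) b (hb | hb)
    · exact h₁.1.comm ha hb
    · exact (Subgroup.mem_centralizer_iff.mp (h ha) b hb).symm
    · exact Subgroup.mem_centralizer_iff.mp (h hb) a ha
    · exact h₂.1.comm ha hb
  refine ⟨⟨hcomm, fun t ht => ?_⟩, fun hle => h₁.2.1 (le_sup_left.trans hle), fun S hS hSi => ?_⟩
  · rw [Subgroup.sup_eq_closure] at ht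
    induction ht using Subgroup.closure_induction with
    | mem x hx => exact hx.elim (h₁.1.2 x) (h₂.1.2 x)
    | one => simp
    | mul x y hx hy ihx ihy =>
      have hx' : x ∈ T₁ ⊔ T₂ := by rw [Subgroup.sup_eq_closure]; exact hx
      have hy' : y ∈ T₁ ⊔ T₂ := by rw [Subgroup.sup_eq_closure]; exact hy
      have hxy : Commute x y :=
        haveI := hcomm
        Subgroup.mul_comm_of_mem_isMulCommutative (T₁ ⊔ T₂) hx' hy'
      exact (ihx.mul_left ihy).coprime_dvd_left hxy.orderOf_mul_dvd_mul_orderOf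
    | inv x _ ihx => rwa [orderOf_inv]
  · have key : ∀ T, Stable ρ p Q T → T ≤ T₁ ⊔ T₂ →
        Subgroup.centralizer (S : Set H) ≤ Subgroup.centralizer (T : Set H) := by
      intro T hT hTle
      refine le_trans (Subgroup.centralizer_le (SetLike.coe_subset_coe.mpr inf_le_left))
        (hT.2.2 (S ⊓ T) inf_le_right ?_)
      rw [Subgroup.inf_relIndex_right]
      exact (Subgroup.relIndex_le_of_le_right hTle Subgroup.FiniteIndex.index_ne_zero).trans hSi
    rw [Subgroup.le_centralizer_iff]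
    refine sup_le ?_ ?_
    · exact Subgroup.le_centralizer_iff.mp (key T₁ h₁ le_sup_left)
    · exact Subgroup.le_centralizer_iff.mp (key T₂ h₂ le_sup_right)

omit [Finite H] in
theorem Stable.map_conj (hρ : Function.Injective ρ) {T : Subgroup H} (hT : Stable ρ p Q T)
    (g : H) : Stable ρ p Q (T.map (MulAut.conj g).toMonoidHom) := by
  set e : H ≃* H := MulAut.conj g with he
  have hZ : ∀ z, z ∈ scalarSub ρ → e z = z := fun z hz => by
    simp [he, scalarSub_commute hρ hz g]
  refine ⟨⟨haveI := hT.1.1; inferInstance, ?_⟩, ?_, fun S hS hSi => ?_⟩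
  · rintro _ ⟨t, ht, rfl⟩
    simpa [orderOf_injective e.toMonoidHom e.injective] using hT.1.2 t ht
  · intro hle
    refine hT.2.1 fun t ht => ?_
    have h1 : e t ∈ scalarSub ρ := hle ⟨t, ht, rfl⟩
    have := hZ _ h1
    rw [← e.injective this]
    exact h1
  · have h1 : S.comap e.toMonoidHom ≤ T := fun t ht => by
      obtain ⟨t', ht', h⟩ := hS ht
      rwa [← e.injective h]
    have h2 : (S.comap e.toMonoidHom).relIndex T ≤ Q := by rwa [Subgroup.relIndex_comap]
    intro x hx
    have h3 : e.symm x ∈ Subgroup.centralizer (S.comap e.toMonoidHom : Set H) := by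
      rw [Subgroup.mem_centralizer_iff] at hx ⊢
      intro t ht
      apply e.injective
      simpa using hx (e t) ht
    have h4 := Subgroup.mem_centralizer_iff.mp (hT.2.2 _ h1 h2 h3)
    rw [Subgroup.mem_centralizer_iff]
    rintro _ ⟨t, ht, rfl⟩
    simpa using congrArg e (h4 t ht)

theorem cell_eq_of_le (hc : CentBound ρ Q) {T₁ T₂ S : Subgroup H}
    (h₁ : Maximal (Stable ρ p Q) T₁) (h₂ : Maximal (Stable ρ p Q) T₂) (hS : Stable ρ p Q S)
    (hS₁ : S ≤ T₁) (hS₂ : S ≤ T₂) : T₁ = T₂ := by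
  obtain ⟨s, hsS, hs⟩ := SetLike.not_le_iff_exists.mp hS.2.1
  have key : ∀ T, Stable ρ p Q T → S ≤ T → T ≤ Subgroup.centralizer {s} := fun T hT hle t ht =>
    Subgroup.mem_centralizer_singleton_iff.mpr (hT.1.comm ht (hle hsS))
  have h := h₁.1.le_centralizer_of_le_centralizer hc h₂.1 hs (key _ h₁.1 hS₁) (key _ h₂.1 hS₂)
  have h' := h₁.1.sup h₂.1 h
  exact le_antisymm (le_sup_left.trans (h₂.2 h' le_sup_right))
    (le_sup_right.trans (h₁.2 h' le_sup_left))

theorem exists_cell_ge {S : Subgroup H} (hS : Stable ρ p Q S) :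
    ∃ T, S ≤ T ∧ Maximal (Stable ρ p Q) T :=
  Finite.exists_le_maximal hS

theorem cell_eq_of_mem (hc : CentBound ρ Q) {T₁ T₂ : Subgroup H}
    (h₁ : Maximal (Stable ρ p Q) T₁) (h₂ : Maximal (Stable ρ p Q) T₂) {x : H}
    (hx : x ∉ scalarSub ρ) (hx₁ : x ∈ cellSet ρ p Q T₁) (hx₂ : x ∈ cellSet ρ p Q T₂) :
    T₁ = T₂ := by
  obtain ⟨_, S₁, hS₁, hle₁, hxS₁⟩ := hx₁
  obtain ⟨_, S₂, hS₂, hle₂, hxS₂⟩ := hx₂
  have e : ∀ S : Subgroup H, x ∈ Subgroup.centralizer (S : Set H) →
      S ≤ Subgroup.centralizer {x} := fun S h s hs =>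
    Subgroup.mem_centralizer_singleton_iff.mpr (Subgroup.mem_centralizer_iff.mp h s hs)
  have h := hS₁.sup hS₂ (hS₁.le_centralizer_of_le_centralizer hc hS₂ hx (e _ hxS₁) (e _ hxS₂))
  obtain ⟨T, hST, hT⟩ := exists_cell_ge h
  exact (cell_eq_of_le hc h₁ hT hS₁ hle₁ (le_sup_left.trans hST)).trans
    (cell_eq_of_le hc h₂ hT hS₂ hle₂ (le_sup_right.trans hST)).symm

theorem relIndex_le_mul {A B C : Subgroup H} (hBC : B ≤ C) :
    A.relIndex C ≤ A.relIndex B * B.relIndex C := by
  calc A.relIndex C ≤ (A ⊓ B).relIndex C :=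
        Subgroup.relIndex_le_of_le_left inf_le_left Subgroup.FiniteIndex.index_ne_zero
    _ = A.relIndex B * B.relIndex C := by
        rw [← Subgroup.relIndex_mul_relIndex _ _ _ inf_le_right hBC, Subgroup.inf_relIndex_right]

theorem exists_stable_le [FiniteDimensional K V] (hρ : Function.Injective ρ) (hQ : 1 ≤ Q) :
    ∀ (d : ℕ) (A : Subgroup H), IsPAb p A →
      finrank K (Submodule.span K (ρ '' (A : Set H))) ≤ d →
      Q ^ (d + 1) < (scalarSub ρ).relIndex A → ∃ S ≤ A, Stable ρ p Q S := by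
  intro d
  induction d with
  | zero =>
    intro A _ hd hA
    exfalso
    have h1 : ρ 1 ∈ Submodule.span K (ρ '' (A : Set H)) :=
      Submodule.subset_span ⟨1, A.one_mem, rfl⟩
    rw [Submodule.finrank_eq_zero.mp (Nat.le_zero.mp hd), Submodule.mem_bot, map_one] at h1
    have : Subsingleton H := ⟨fun a b => hρ (by
      rw [← mul_one (ρ a), ← mul_one (ρ b), h1, mul_zero, mul_zero])⟩
    rw [Subsingleton.elim A (scalarSub ρ), Subgroup.relIndex_self] at hA
    exact absurd hA (not_lt.mpr (Nat.one_le_pow _ _ hQ))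
  | succ d ih =>
    intro A hA hd hAi
    by_cases hst : Stable ρ p Q A
    · exact ⟨A, le_rfl, hst⟩
    have hAZ : ¬ A ≤ scalarSub ρ := fun h => by
      rw [Subgroup.relIndex_eq_one.mpr h] at hAi
      exact absurd hAi (not_lt.mpr (Nat.one_le_pow _ _ hQ))
    simp only [Stable, hA, hAZ, not_false_eq_true, true_and, not_forall] at hst
    obtain ⟨S, hSA, hSi, hS⟩ := hst
    have hlt : Submodule.span K (ρ '' (S : Set H)) < Submodule.span K (ρ '' (A : Set H)) :=
      lt_of_le_not_ge (Submodule.span_mono (Set.image_mono hSA))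
        fun h => hS (centralizer_le_of_span_eq ρ hρ h)
    have hd' := Submodule.finrank_lt_finrank_of_lt hlt
    have hS' : IsPAb p S :=
      ⟨⟨⟨fun a b => Subtype.ext (hA.comm (hSA a.2) (hSA b.2))⟩⟩, fun t ht => hA.2 t (hSA ht)⟩
    obtain ⟨S', hS'S, hS''⟩ := ih S hS' (by omega) (by
      have h1 := hAi.trans_le ((relIndex_le_mul hSA).trans (Nat.mul_le_mul_left _ hSi))
      rw [pow_succ] at h1
      exact Nat.lt_of_mul_lt_mul_right h1)
    exact ⟨S', hS'S.trans hSA, hS''⟩

theorem exists_cell_of_large [hp : Fact p.Prime] [FiniteDimensional K V]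
    (hρ : Function.Injective ρ) (hc : CentBound ρ Q) (hQ : 1 ≤ Q) {n m : ℕ}
    (hdim : finrank K V ≤ n) (hm : (Nat.card H).factorization p ≤ m) {x : H}
    (hx : x ∉ scalarSub ρ)
    (hL : Q ^ (n * n + 1) * p ^ m * Q < (scalarSub ρ).relIndex (Subgroup.centralizer {x})) :
    ∃ T, Maximal (Stable ρ p Q) T ∧ x ∈ cellSet ρ p Q T := by
  obtain ⟨N, hNx, hNc, hNi⟩ := hc x hx
  set f : N →* H :=
    { toFun := fun a => (a : H) ^ (p ^ m)
      map_one' := by simp
      map_mul' := fun a b => by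
        rw [Subgroup.coe_mul]
        exact Commute.mul_pow (Subgroup.mul_comm_of_mem_isMulCommutative N a.2 b.2) _ }
  have hAN : f.range ≤ N := by
    rintro _ ⟨a, rfl⟩
    exact N.pow_mem a.2 _
  have hA : IsPAb p f.range := by
    refine ⟨inferInstance, ?_⟩
    rintro _ ⟨⟨a, ha⟩, rfl⟩
    have hne : orderOf a ≠ 0 := (orderOf_pos a).ne'
    obtain ⟨k, r, hr, he⟩ := Nat.exists_eq_pow_mul_and_not_dvd hne p hp.out.ne_one
    have hk : k ≤ m := ((hp.out.pow_dvd_iff_le_factorization Nat.card_pos.ne').mp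
      ((dvd_mul_right _ r).trans (he ▸ orderOf_dvd_natCard a))).trans hm
    suffices hd : orderOf (f ⟨a, ha⟩) ∣ r from
      Nat.Coprime.coprime_dvd_left hd (hp.out.coprime_iff_not_dvd.mpr hr).symm
    apply orderOf_dvd_of_pow_eq_one
    change (a ^ p ^ m) ^ r = 1
    rw [← pow_mul, ← orderOf_dvd_iff_pow_eq_one, he]
    exact Nat.mul_dvd_mul_right (pow_dvd_pow p hk) r
  have hAi : f.range.relIndex N ≤ p ^ m := by
    have h1 := f.range.card_mul_index
    have hker : Nat.card f.ker ≤ p ^ m := by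
      refine card_le_of_isPGroup hp.out hm (fun a => ⟨m, ?_⟩)
        (f.ker.card_subgroup_dvd_card.trans N.card_subgroup_dvd_card)
      have := MonoidHom.mem_ker.mp a.2
      exact Subtype.ext (Subtype.ext (by simpa [f] using this))
    have h2 : Nat.card f.ker * Nat.card f.range = Nat.card N := by
      rw [← Subgroup.index_ker, Subgroup.card_mul_index]
    have h3 : Nat.card f.range * f.range.relIndex N = Nat.card N := by
      rw [← Nat.card_congr (Subgroup.subgroupOfEquivOfLe hAN).toEquiv]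
      exact Subgroup.card_mul_index _
    have : f.range.relIndex N = Nat.card f.ker :=
      Nat.eq_of_mul_eq_mul_left Nat.card_pos (h3.trans (h2.symm.trans (mul_comm _ _)))
    omega
  have hbig : Q ^ (n * n + 1) < (scalarSub ρ).relIndex f.range := by
    have h1 := hL.trans_le ((relIndex_le_mul (A := scalarSub ρ) hNx).trans
      (Nat.mul_le_mul ((relIndex_le_mul hAN).trans (Nat.mul_le_mul_left _ hAi)) hNi))
    exact Nat.lt_of_mul_lt_mul_right (Nat.lt_of_mul_lt_mul_right h1)
  have hfr : finrank K (Submodule.span K (ρ '' (f.range : Set H))) ≤ n * n := by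
    refine (Submodule.finrank_le _).trans ?_
    rw [Module.finrank_linearMap]
    exact Nat.mul_le_mul hdim hdim
  obtain ⟨S, hSA, hS⟩ := exists_stable_le hρ hQ (n * n) f.range hA hfr hbig
  obtain ⟨T, hST, hT⟩ := exists_cell_ge hS
  have hxS : x ∈ Subgroup.centralizer (S : Set H) :=
    Subgroup.mem_centralizer_iff.mpr fun s hs =>
      Subgroup.mem_centralizer_singleton_iff.mp (hNx (hAN (hSA hs)))
  refine ⟨T, hT, ?_, S, hS, hST, hxS⟩
  have hTx : Maximal (Stable ρ p Q) (T.map (MulAut.conj x).toMonoidHom) := by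
    refine ⟨hT.1.map_conj hρ x, fun T' hT' hle => ?_⟩
    have h1 : T'.map (MulAut.conj x⁻¹).toMonoidHom ≤ T := by
      refine hT.2 (hT'.map_conj hρ x⁻¹) fun t ht => ?_
      exact ⟨x * t * x⁻¹, hle ⟨t, ht, rfl⟩, by simp [mul_assoc]⟩
    intro t ht
    exact ⟨x⁻¹ * t * x, h1 ⟨t, ht, by simp⟩, by simp [mul_assoc]⟩
  have hSx : S ≤ T.map (MulAut.conj x).toMonoidHom := fun s hs =>
    ⟨s, hST hs, by
      have := Subgroup.mem_centralizer_iff.mp hxS s hs
      simp [← this]⟩
  rw [Subgroup.mem_normalizer_iff_map_conj_eq]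
  exact (cell_eq_of_le hc hTx hT hS hSx hST)

end CfsgLib.BrauerCharacters.JordanP
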