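import Mathlib

/-!
# Linear groups in characteristic `p`: centralizers of non-scalar elements

If a finite group has a faithful representation of dimension at most `n` over an algebraically
closed field of characteristic `p`, then, by induction on the dimension, the centralizer of every
non-scalar element has an abelian subgroup of bounded index.
-/

set_option autoImplicit false

universe u v

namespace CfsgLib.BrauerCharacters.JordanP

open Module

/-- The induction statement: abelian normal subgroups of index at most `B`. -/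
def JordanBound (p B m n : ℕ) : Prop :=
  ∀ (H : Type u) [Group H] [Finite H] (K : Type v) [Field K] [CharP K p] [IsAlgClosed K]
    (V : Type v) [AddCommGroup V] [Module K V] [FiniteDimensional K V], finrank K V ≤ n →
    ∀ ρ : H →* Module.End K V, Function.Injective ρ → (Nat.card H).factorization p ≤ m →
      ∃ A : Subgroup H, A.Normal ∧ IsMulCommutative A ∧ A.index ≤ B

theorem factorization_le_of_dvd {p a b m : ℕ} (hab : a ∣ b) (hb : b ≠ 0)
    (hm : b.factorization p ≤ m) : a.factorization p ≤ m :=
  le_trans ((Nat.factorization_le_iff_dvd (fun h => hb (by simpa [h] using hab)) hb).mpr hab p) hm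

theorem card_le_of_isPGroup {H : Type u} [Group H] [Finite H] {p m : ℕ} (hp : p.Prime)
    (hm : (Nat.card H).factorization p ≤ m) {U : Type u} [Group U] [Finite U] (hU : IsPGroup p U)
    (hdvd : Nat.card U ∣ Nat.card H) : Nat.card U ≤ p ^ m := by
  have := Fact.mk hp
  obtain ⟨k, hk⟩ := IsPGroup.iff_card.mp hU
  rw [hk] at hdvd ⊢
  exact Nat.pow_le_pow_right hp.pos
    ((hp.pow_dvd_iff_le_factorization Nat.card_pos.ne').mp hdvd |>.trans hm)

variable {H : Type u} [Group H] {K : Type v} [Field K] {V : Type v} [AddCommGroup V] [Module K V]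

/-- Elements acting as scalars. -/
def scalarSub (ρ : H →* Module.End K V) : Subgroup H where
  carrier := {h | ∃ c : K, ρ h = c • 1}
  one_mem' := ⟨1, by simp⟩
  mul_mem' := by
    rintro a b ⟨c, hc⟩ ⟨d, hd⟩
    exact ⟨c * d, by simp [map_mul, hc, hd, smul_smul, mul_comm]⟩
  inv_mem' := by
    rintro a ⟨c, hc⟩
    have h1 : c • ρ a⁻¹ = 1 := by
      have := congrArg (fun f => ρ a⁻¹ * f) hc
      simpa [← map_mul] using this.symm
    by_cases h0 : c = 0
    · refine ⟨0, ?_⟩
      have : (1 : Module.End K V) = 0 := by rw [← h1, h0, zero_smul]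
      calc ρ a⁻¹ = ρ a⁻¹ * 1 := (mul_one _).symm
        _ = (0 : K) • 1 := by rw [this]; simp
    · exact ⟨c⁻¹, by rw [← h1, smul_smul, inv_mul_cancel₀ h0, one_smul]⟩

theorem mem_scalarSub {ρ : H →* Module.End K V} {h : H} :
    h ∈ scalarSub ρ ↔ ∃ c : K, ρ h = c • 1 := Iff.rfl

theorem scalarSub_commute {ρ : H →* Module.End K V} (hρ : Function.Injective ρ) {z : H}
    (hz : z ∈ scalarSub ρ) (g : H) : g * z = z * g := by
  obtain ⟨c, hc⟩ := hz
  exact hρ (by simp [map_mul, hc])

theorem scalarSub_normal {ρ : H →* Module.End K V} (hρ : Function.Injective ρ) :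
    (scalarSub ρ).Normal :=
  ⟨fun z hz g => by rw [scalarSub_commute hρ hz g, mul_inv_cancel_right]; exact hz⟩

theorem scalarSub_isMulCommutative {ρ : H →* Module.End K V} (hρ : Function.Injective ρ) :
    IsMulCommutative (scalarSub ρ) :=
  ⟨⟨fun a b => Subtype.ext (scalarSub_commute hρ b.2 a.1)⟩⟩

theorem nontrivial_of_not_mem_scalarSub {ρ : H →* Module.End K V} {x : H}
    (hx : x ∉ scalarSub ρ) : Nontrivial V := by
  by_contra h
  rw [not_nontrivial_iff_subsingleton] at h
  exact hx ⟨0, Subsingleton.elim _ _⟩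

theorem exists_index_le_commute {p B m n : ℕ} [Finite H] [CharP K p] [IsAlgClosed K]
    (hB : JordanBound.{u, v} p B m (n - 1)) (hm : (Nat.card H).factorization p ≤ m)
    [FiniteDimensional K V] (hdim : finrank K V < n) (r : H →* Module.End K V) :
    ∃ R : Subgroup H, R.index ≤ B ∧ ∀ a ∈ R, ∀ b ∈ R, r (a * b) = r (b * a) := by
  set r' := r.toHomUnits
  obtain ⟨A, _, hA, hAi⟩ := hB (H ⧸ r'.ker) K V (by omega)
    ((Units.coeHom (Module.End K V)).comp (QuotientGroup.kerLift r'))
    (Units.val_injective.comp (QuotientGroup.kerLift_injective r'))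
    (factorization_le_of_dvd (Subgroup.card_quotient_dvd_card _) Nat.card_pos.ne' hm)
  refine ⟨A.comap (QuotientGroup.mk' r'.ker), ?_, fun a ha b hb => ?_⟩
  · rwa [Subgroup.index_comap_of_surjective _ (QuotientGroup.mk'_surjective _)]
  · have h := congrArg (fun y => ((QuotientGroup.kerLift r' y : (Module.End K V)ˣ) : Module.End K V))
      (Subgroup.mul_comm_of_mem_isMulCommutative A (Subgroup.mem_comap.mp ha)
        (Subgroup.mem_comap.mp hb))
    simpa only [map_mul, QuotientGroup.mk'_apply, QuotientGroup.kerLift_mk, Units.val_mul,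
      r', MonoidHom.coe_toHomUnits] using h

/-- A finite group stabilising a proper nonzero subspace has an abelian subgroup of bounded
index. -/
theorem exists_abelian_of_invariant {p B m n : ℕ} [hp : Fact p.Prime] [Finite H] [CharP K p]
    [IsAlgClosed K] [FiniteDimensional K V] (hB : JordanBound.{u, v} p B m (n - 1))
    (hdim : finrank K V ≤ n) (ρ : H →* Module.End K V) (hρ : Function.Injective ρ)
    (hm : (Nat.card H).factorization p ≤ m) (W : Submodule K V) (hWbot : W ≠ ⊥) (hWtop : W ≠ ⊤)
    (hinv : ∀ g : H, ∀ w ∈ W, ρ g w ∈ W) :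
    ∃ N : Subgroup H, IsMulCommutative N ∧
      N.index ≤ B * B * Nat.factorial (p ^ m) * p ^ m := by
  have : Nontrivial V := by
    obtain ⟨w, _, hw⟩ := Submodule.exists_mem_ne_zero_of_ne_bot hWbot
    exact ⟨⟨w, 0, hw⟩⟩
  have : CharP (Module.End K V) p :=
    charP_of_injective_algebraMap (algebraMap K (Module.End K V)).injective p
  let r1 : H →* Module.End K W :=
    { toFun := fun g => (ρ g).restrict (hinv g)
      map_one' := by ext w; simp
      map_mul' := fun g h => by ext w; simp }
  let r2 : H →* Module.End K (V ⧸ W) :=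
    { toFun := fun g => W.mapQ W (ρ g) (hinv g)
      map_one' := by ext v; simp
      map_mul' := fun g h => by ext v; simp }
  have hn : finrank K W < n := (Submodule.finrank_lt hWtop).trans_le hdim
  have hn2 : finrank K (V ⧸ W) < n := by
    have h1 := W.finrank_quotient_add_finrank
    have h2 : 0 < finrank K W := Submodule.one_le_finrank_iff.mpr hWbot
    omega
  obtain ⟨R1, hR1, hR1c⟩ := exists_index_le_commute hB hm hn r1
  obtain ⟨R2, hR2, hR2c⟩ := exists_index_le_commute hB hm hn2 r2
  set U := r1.ker ⊓ r2.ker with hUdef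
  have hUexp : ∀ u ∈ U, u ^ p = 1 := by
    rintro u ⟨h1, h2⟩
    set N : Module.End K V := ρ u - 1 with hN
    have hNW : ∀ v, N v ∈ W := fun v => by
      have := congrArg (fun f : Module.End K (V ⧸ W) => f (Submodule.Quotient.mk v))
        (MonoidHom.mem_ker.mp h2)
      simp only [r2, MonoidHom.coe_mk, OneHom.coe_mk, Submodule.mapQ_apply,
        Module.End.one_apply] at this
      simpa [hN] using (Submodule.Quotient.eq W).mp this
    have hN0 : ∀ w ∈ W, N w = 0 := fun w hw => by
      have := congrArg (fun f : Module.End K W => ((f ⟨w, hw⟩ : W) : V))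
        (MonoidHom.mem_ker.mp h1)
      simp [r1] at this
      simp [hN, this]
    have hsq : N ^ 2 = 0 := LinearMap.ext fun v => by
      rw [pow_two]; exact hN0 _ (hNW v)
    apply hρ
    rw [map_pow, map_one, show ρ u = 1 + N by rw [hN]; abel,
      add_pow_char_of_commute p (Commute.one_left N), one_pow,
      pow_eq_zero_of_le hp.out.two_le hsq, add_zero]
  have hU : IsPGroup p U := fun u => ⟨1, Subtype.ext (by simpa using hUexp u u.2)⟩
  have hUcard : Nat.card U ≤ p ^ m :=
    card_le_of_isPGroup hp.out hm hU U.card_subgroup_dvd_card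
  have hUn : U.Normal := by rw [hUdef]; infer_instance
  set R0 := R1 ⊓ R2 ⊓ (MulAut.conjNormal (H := U)).ker with hR0
  have hR0i : R0.index ≤ B * B * Nat.factorial (p ^ m) := by
    refine (Subgroup.index_inf_le).trans (Nat.mul_le_mul
      ((Subgroup.index_inf_le).trans (Nat.mul_le_mul hR1 hR2)) ?_)
    rw [Subgroup.index_ker]
    have hinj : Function.Injective (fun e : MulAut U => e.toEquiv) :=
      fun e f h => MulEquiv.ext fun a => Equiv.congr_fun h a
    have := Finite.of_injective _ hinj
    calc Nat.card _ ≤ Nat.card (MulAut U) := Nat.card_le_card_of_injective _ Subtype.val_injective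
      _ ≤ Nat.card (Equiv.Perm U) := Nat.card_le_card_of_injective _ hinj
      _ = Nat.factorial (Nat.card U) := Nat.card_perm
      _ ≤ Nat.factorial (p ^ m) := Nat.factorial_le hUcard
  have hkey : ∀ a ∈ R0, ∀ b ∈ R0, a ^ p * b = b * a ^ p := by
    intro a ha b hb
    simp only [hR0, Subgroup.mem_inf] at ha hb
    obtain ⟨d, hd⟩ : ∃ d, d = a * b * a⁻¹ * b⁻¹ := ⟨_, rfl⟩
    have hdU : d ∈ U := by
      have hd' : d = (a * b) * (b * a)⁻¹ := by rw [hd]; group
      refine ⟨?_, ?_⟩
      · change r1 d = 1
        rw [hd', map_mul, hR1c a ha.1.1 b hb.1.1, ← map_mul, mul_inv_cancel, map_one]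
      · change r2 d = 1
        rw [hd', map_mul, hR2c a ha.1.2 b hb.1.2, ← map_mul, mul_inv_cancel, map_one]
    have had : Commute a d := by
      have := congrArg (fun e : MulAut U => ((e ⟨d, hdU⟩ : U) : H)) (MonoidHom.mem_ker.mp ha.2)
      simp only [MulAut.conjNormal_apply, MulAut.one_apply] at this
      exact mul_inv_eq_iff_eq_mul.mp this
    have hk : ∀ k : ℕ, a ^ k * b = d ^ k * b * a ^ k := by
      intro k
      induction k with
      | zero => simp
      | succ k ih =>
        have h1 : a * b = d * b * a := by rw [hd]; group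
        have h2 : a * d ^ k = d ^ k * a := (had.pow_right k).eq
        calc a ^ (k + 1) * b = a * (a ^ k * b) := by rw [pow_succ', mul_assoc]
          _ = (a * d ^ k) * b * a ^ k := by simp only [ih, mul_assoc]
          _ = d ^ k * (a * b) * a ^ k := by simp only [h2, mul_assoc]
          _ = d ^ (k + 1) * b * a ^ (k + 1) := by rw [h1, pow_succ, pow_succ']; simp only [mul_assoc]
    rw [hk p, hUexp d hdU, one_mul]
  have hZ : IsPGroup p (R0 ⧸ Subgroup.center R0) := by
    intro y
    induction y using QuotientGroup.induction_on with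
    | _ a =>
      refine ⟨1, ?_⟩
      rw [pow_one, ← QuotientGroup.mk_pow, QuotientGroup.eq_one_iff, Subgroup.mem_center_iff]
      intro b
      exact Subtype.ext (by simpa using (hkey a a.2 b b.2).symm)
  have hZi : (Subgroup.center R0).index ≤ p ^ m :=
    card_le_of_isPGroup hp.out hm hZ
      ((Subgroup.card_quotient_dvd_card _).trans R0.card_subgroup_dvd_card)
  refine ⟨(Subgroup.center R0).map R0.subtype, inferInstance, ?_⟩
  rw [Subgroup.index_map_subtype, mul_comm]
  exact Nat.mul_le_mul hR0i hZi

theorem exists_abelian_le_centralizer {p B m n : ℕ} [hp : Fact p.Prime] [Finite H] [CharP K p]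
    [IsAlgClosed K] [FiniteDimensional K V] (hB : JordanBound.{u, v} p B m (n - 1))
    (hdim : finrank K V ≤ n) (ρ : H →* Module.End K V) (hρ : Function.Injective ρ)
    (hm : (Nat.card H).factorization p ≤ m) (x : H) (hx : x ∉ scalarSub ρ) :
    ∃ N : Subgroup H, N ≤ Subgroup.centralizer {x} ∧ IsMulCommutative N ∧
      N.relIndex (Subgroup.centralizer {x}) ≤ B * B * Nat.factorial (p ^ m) * p ^ m := by
  have : Nontrivial V := nontrivial_of_not_mem_scalarSub hx
  obtain ⟨c, hc⟩ := Module.End.exists_eigenvalue (ρ x)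
  have hWbot : Module.End.eigenspace (ρ x) c ≠ ⊥ := Module.End.hasEigenvalue_iff.mp hc
  have hWtop : Module.End.eigenspace (ρ x) c ≠ ⊤ := by
    intro h
    refine hx ⟨c, LinearMap.ext fun v => ?_⟩
    have : v ∈ Module.End.eigenspace (ρ x) c := h ▸ Submodule.mem_top
    simpa using Module.End.mem_eigenspace_iff.mp this
  set C := Subgroup.centralizer ({x} : Set H) with hCdef
  have hinv : ∀ g : C, ∀ w ∈ Module.End.eigenspace (ρ x) c,
      (ρ.comp C.subtype) g w ∈ Module.End.eigenspace (ρ x) c := by
    intro g w hw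
    rw [Module.End.mem_eigenspace_iff] at hw ⊢
    have hg : (g : H) * x = x * g := Subgroup.mem_centralizer_singleton_iff.mp g.2
    change ρ x (ρ g w) = c • ρ g w
    rw [← Module.End.mul_apply, ← map_mul, ← hg, map_mul, Module.End.mul_apply, hw, map_smul]
  obtain ⟨N, hN, hNi⟩ := exists_abelian_of_invariant (H := C) hB hdim (ρ.comp C.subtype)
    (hρ.comp C.subtype_injective)
    (factorization_le_of_dvd C.card_subgroup_dvd_card Nat.card_pos.ne' hm) _ hWbot hWtop hinv
  refine ⟨N.map C.subtype, Subgroup.map_subtype_le N, inferInstance, ?_⟩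
  rw [Subgroup.relIndex, Subgroup.subgroupOf, Subgroup.comap_map_eq_self_of_injective
    C.subtype_injective]
  exact hNi

end CfsgLib.BrauerCharacters.JordanP
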