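import Mathlib

/-!
# Counting lemmas for the characteristic-`p` analogue of Jordan's theorem

An Egyptian fraction bound and elementary orbit counting.
-/

set_option autoImplicit false

namespace CfsgLib.BrauerCharacters.JordanP

/-- Bound used in `egypt`. -/
def egyptBound : ℕ → ℕ → ℕ
  | 0, D => D
  | r + 1, D => max D (egyptBound r (D * Nat.factorial ((r + 1) * D)))

/-- If `D (1/g - ∑ 1/n_i)` is an integer, there are at most `r` terms and every `n_i` is at
most `g`, then `g` is bounded in terms of `r` and `D` or some `n_i` equals `g`. -/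
theorem egypt {ι : Type*} [DecidableEq ι] (n : ι → ℕ) (g : ℕ) (hg : 0 < g) :
    ∀ (r D : ℕ) (s : Finset ι), 0 < D → s.card ≤ r → (∀ i ∈ s, 0 < n i ∧ n i ≤ g) →
      (∃ z : ℤ, (D : ℚ) / g - ∑ i ∈ s, (D : ℚ) / n i = z) →
      g ≤ egyptBound r D ∨ ∃ i ∈ s, n i = g := by
  intro r
  induction r with
  | zero =>
    intro D s hD hs _ ⟨z, hz⟩
    have : s = ∅ := Finset.card_eq_zero.mp (Nat.le_zero.mp hs)
    subst this
    simp only [Finset.sum_empty, sub_zero] at hz
    left
    have h1 : (D : ℚ) = ((z * g : ℤ) : ℚ) := by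
      rw [div_eq_iff (by positivity)] at hz
      push_cast
      exact hz
    have h2 : (D : ℤ) = z * g := by exact_mod_cast h1
    have h3 : (g : ℤ) ∣ (D : ℤ) := ⟨z, by rw [h2, mul_comm]⟩
    exact Nat.le_of_dvd hD (Int.natCast_dvd_natCast.mp h3)
  | succ r ih =>
    intro D s hD hs hn ⟨z, hz⟩
    have hgq : (0 : ℚ) < g := by exact_mod_cast hg
    have hDq : (0 : ℚ) < D := by exact_mod_cast hD
    have hsum : 0 ≤ ∑ i ∈ s, (D : ℚ) / n i := Finset.sum_nonneg fun i _ => by positivity
    rcases lt_trichotomy z 0 with h | h | h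
    · have hz1 : (z : ℚ) ≤ -1 := by exact_mod_cast (show z ≤ -1 by omega)
      have h1 : 1 ≤ ∑ i ∈ s, (D : ℚ) / n i := by
        have h0 : (0 : ℚ) ≤ (D : ℚ) / g := by positivity
        linarith
      obtain ⟨i, hi, hni⟩ : ∃ i ∈ s, n i ≤ (r + 1) * D := by
        by_contra hc
        push_neg at hc
        have hlt : ∀ i ∈ s, (D : ℚ) / n i < 1 / (r + 1 : ℕ) := by
          intro i hi
          have hni : (0 : ℚ) < n i := by exact_mod_cast (hn i hi).1
          rw [div_lt_div_iff₀ hni (by positivity), one_mul]
          have := hc i hi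
          calc (D : ℚ) * ((r + 1 : ℕ) : ℚ) = (((r + 1) * D : ℕ) : ℚ) := by push_cast; ring
            _ < n i := by exact_mod_cast this
        have hne : s.Nonempty := by
          rcases s.eq_empty_or_nonempty with rfl | h'
          · exact absurd h1 (by norm_num)
          · exact h'
        have h2 := Finset.sum_lt_sum_of_nonempty hne hlt
        rw [Finset.sum_const, nsmul_eq_mul, mul_one_div] at h2
        have h3 : ((s.card : ℕ) : ℚ) / ((r + 1 : ℕ) : ℚ) ≤ 1 := by
          rw [div_le_one (by positivity)]
          exact_mod_cast hs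
        linarith
      obtain ⟨k, hk⟩ : n i ∣ Nat.factorial ((r + 1) * D) := Nat.dvd_factorial (hn i hi).1 hni
      set D' : ℕ := D * Nat.factorial ((r + 1) * D)
      have hD' : (D' : ℚ) = (D : ℚ) * ((n i : ℚ) * (k : ℚ)) := by
        simp only [D', hk]; push_cast; ring
      have hcard : (s.erase i).card ≤ r := by
        rw [Finset.card_erase_of_mem hi]; omega
      rcases ih D' (s.erase i) (Nat.mul_pos hD (Nat.factorial_pos _)) hcard
        (fun j hj => hn j (Finset.mem_of_mem_erase hj))
        ⟨z * ((n i : ℤ) * k) + D * k, by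
          rw [← Finset.add_sum_erase s _ hi] at hz
          have hni0 : (n i : ℚ) ≠ 0 := by exact_mod_cast (hn i hi).1.ne'
          have e1 : ∀ j, (D' : ℚ) / n j = ((n i : ℚ) * k) * ((D : ℚ) / n j) := fun j => by
            rw [hD']; ring
          have e2 : (D' : ℚ) / g = ((n i : ℚ) * k) * ((D : ℚ) / g) := by
            rw [hD']; ring
          simp only [e1, e2, ← Finset.mul_sum]
          push_cast
          rw [← hz]
          field_simp
          ring⟩ with h' | ⟨j, hj, h'⟩
      · exact Or.inl (h'.trans (le_max_right _ _))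
      · exact Or.inr ⟨j, Finset.mem_of_mem_erase hj, h'⟩
    · subst h
      right
      simp only [Int.cast_zero, sub_eq_zero] at hz
      rcases s.eq_empty_or_nonempty with rfl | ⟨i, hi⟩
      · simp only [Finset.sum_empty] at hz
        exact absurd hz (by positivity)
      · refine ⟨i, hi, ?_⟩
        have h1 : (D : ℚ) / n i ≤ (D : ℚ) / g := by
          rw [hz]
          exact Finset.single_le_sum (f := fun j => (D : ℚ) / n j) (fun j _ => by positivity) hi
        have hni : (0 : ℚ) < n i := by exact_mod_cast (hn i hi).1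
        rw [div_le_div_iff_of_pos_left hDq hni hgq] at h1
        exact le_antisymm (hn i hi).2 (by exact_mod_cast h1)
    · left
      have hz1 : (1 : ℚ) ≤ z := by exact_mod_cast (show (1 : ℤ) ≤ z by omega)
      have h1 : (1 : ℚ) ≤ (D : ℚ) / g := by linarith
      rw [le_div_iff₀ hgq, one_mul] at h1
      exact le_trans (by exact_mod_cast h1) (le_max_left _ _)

/-- A sum of an invariant function over a finite `G`-set, orbit by orbit. -/
theorem sum_eq_sum_orbits {G α M : Type*} [Group G] [MulAction G α] [Fintype α]
    [AddCommMonoid M] [Fintype (MulAction.orbitRel.Quotient G α)]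
    (f : α → M) (hf : ∀ (x : G) (a : α), f (x • a) = f a) :
    ∑ a, f a = ∑ q : MulAction.orbitRel.Quotient G α,
      (MulAction.stabilizer G q.out).index • f q.out := by
  classical
  rw [← Equiv.sum_comp (MulAction.selfEquivSigmaOrbits G α).symm f, Fintype.sum_sigma]
  refine Finset.sum_congr rfl fun q _ => ?_
  have h1 : ∀ y : MulAction.orbit G q.out,
      f ((MulAction.selfEquivSigmaOrbits G α).symm ⟨q, y⟩) = f q.out := by
    rintro ⟨y, x, hx⟩
    change f y = f q.out
    rw [← hx]
    exact hf x q.out
  rw [Finset.sum_congr rfl (fun y _ => h1 y), Finset.sum_const, Finset.card_univ,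
    ← Nat.card_eq_fintype_card, MulAction.index_stabilizer]
  rfl

/-- Divisibility of a sum of an invariant function. -/
theorem dvd_sum_of_forall_dvd {G α : Type*} [Group G] [MulAction G α] [Fintype α]
    (f : α → ℕ) (hf : ∀ (x : G) (a : α), f (x • a) = f a) (d : ℕ)
    (hd : ∀ a, d ∣ (MulAction.stabilizer G a).index * f a) : d ∣ ∑ a, f a := by
  classical
  have : Finite (MulAction.orbitRel.Quotient G α) :=
    Finite.of_surjective (fun a : α => (Quotient.mk _ a : MulAction.orbitRel.Quotient G α))
      Quotient.mk_surjective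
  have := Fintype.ofFinite (MulAction.orbitRel.Quotient G α)
  rw [sum_eq_sum_orbits f hf]
  exact Finset.dvd_sum fun q _ => by simpa using hd q.out

end CfsgLib.BrauerCharacters.JordanP
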