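import Cfsg.Agent.Lib.BrauerCharacters.JordanP.Step

/-!
# Jordan's theorem in characteristic `p` (Brauer–Feit)
-/

set_option autoImplicit false

universe u v

namespace CfsgLib.BrauerCharacters.JordanP

open Module

/-- Bound on the index of an abelian normal subgroup. -/
def jordanPBound (p m : ℕ) : ℕ → ℕ
  | 0 => 1
  | n + 1 => stepBound p (jordanPBound p m n) m (n + 1)

theorem jordanBound (p : ℕ) [Fact p.Prime] (m : ℕ) :
    ∀ n, JordanBound.{u, v} p (jordanPBound p m n) m n := by
  intro n
  induction n with
  | zero =>
    intro H _ _ K _ _ _ V _ _ _ hdim ρ hρ _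
    have : Subsingleton V := finrank_zero_iff.mp (Nat.le_zero.mp hdim)
    have : Subsingleton H := ⟨fun a b => hρ (Subsingleton.elim _ _)⟩
    exact ⟨⊤, inferInstance, ⟨⟨fun a b => Subsingleton.elim _ _⟩⟩, by simp [jordanPBound]⟩
  | succ n ih => exact jordanBound_step ih

/-- A finite group with a faithful representation of dimension `n` over a field of
characteristic `p` has an abelian normal subgroup of index bounded by `n` and the `p`-part of
its order. -/
theorem exists_abelian_normal_index_le (p : ℕ) [Fact p.Prime] {G : Type u} [Group G] [Finite G]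
    {F : Type v} [Field F] [CharP F p] {n : ℕ} (ρ : Representation F G (Fin n → F))
    (hρ : Function.Injective ρ) {m : ℕ} (hm : (Nat.card G).factorization p ≤ m) :
    ∃ A : Subgroup G, A.Normal ∧ IsMulCommutative A ∧ A.index ≤ jordanPBound p m n := by
  have : CharP (AlgebraicClosure F) p :=
    charP_of_injective_algebraMap (algebraMap F (AlgebraicClosure F)).injective p
  let e : Module.End F (Fin n → F) →* Module.End (AlgebraicClosure F) (Fin n → AlgebraicClosure F) :=
    ((Matrix.toLinAlgEquiv' (R := AlgebraicClosure F)).toAlgHom.toRingHom.comp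
      ((algebraMap F (AlgebraicClosure F)).mapMatrix.comp
        (Matrix.toLinAlgEquiv' (R := F)).symm.toAlgHom.toRingHom)).toMonoidHom
  have he : Function.Injective e :=
    (Matrix.toLinAlgEquiv'.injective.comp
      ((Matrix.map_injective (algebraMap F (AlgebraicClosure F)).injective).comp
        Matrix.toLinAlgEquiv'.symm.injective))
  exact jordanBound.{u, v} p m n G (AlgebraicClosure F) (Fin n → AlgebraicClosure F)
    (by simp) (e.comp ρ) (he.comp hρ) hm

end CfsgLib.BrauerCharacters.JordanP
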