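import Cfsg.Agent.Lib.BrauerCharacters.JordanP.Count
import Cfsg.Agent.Lib.BrauerCharacters.JordanP.Cells

/-!
# The induction step for Jordan's theorem in characteristic `p`
-/

set_option autoImplicit false

universe u v

namespace CfsgLib.BrauerCharacters.JordanP

open Module
open scoped Pointwise

variable {H : Type u} [Group H] {K : Type v} [Field K] {V : Type v} [AddCommGroup V] [Module K V]
  {ρ : H →* Module.End K V} {p Q : ℕ}

theorem maximal_map_conj (hρ : Function.Injective ρ) {T : Subgroup H}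
    (hT : Maximal (Stable ρ p Q) T) (g : H) :
    Maximal (Stable ρ p Q) (T.map (MulAut.conj g).toMonoidHom) := by
  refine ⟨hT.1.map_conj hρ g, fun T' hT' hle => ?_⟩
  have h1 : T'.map (MulAut.conj g⁻¹).toMonoidHom ≤ T := by
    refine hT.2 (hT'.map_conj hρ g⁻¹) fun t ht => ?_
    exact ⟨g * t * g⁻¹, hle ⟨t, ht, rfl⟩, by simp [mul_assoc]⟩
  intro t ht
  exact ⟨g⁻¹ * t * g, h1 ⟨t, ht, by simp⟩, by simp [mul_assoc]⟩

theorem conj_mem_cellSet (hρ : Function.Injective ρ) {T : Subgroup H} {x : H}
    (hx : x ∈ cellSet ρ p Q T) (g : H) :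
    g * x * g⁻¹ ∈ cellSet ρ p Q (T.map (MulAut.conj g).toMonoidHom) := by
  obtain ⟨hxN, S, hS, hST, hxS⟩ := hx
  refine ⟨?_, S.map (MulAut.conj g).toMonoidHom, hS.map_conj hρ g, Subgroup.map_mono hST, ?_⟩
  · rw [Subgroup.mem_normalizer_iff] at hxN ⊢
    intro h
    simp only [Subgroup.mem_map_equiv, MulAut.conj_symm_apply]
    rw [hxN (g⁻¹ * h * g)]
    simp [mul_assoc]
  · rw [Subgroup.mem_centralizer_iff] at hxS ⊢
    rintro _ ⟨s, hs, rfl⟩
    simpa using congrArg (MulAut.conj g) (hxS s hs)

theorem mul_mem_cellSet {T : Subgroup H} {x c : H} (hx : x ∈ cellSet ρ p Q T)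
    (hc : c ∈ Subgroup.centralizer (T : Set H)) : x * c ∈ cellSet ρ p Q T := by
  obtain ⟨hxN, S, hS, hST, hxS⟩ := hx
  exact ⟨(Subgroup.normalizer _).mul_mem hxN (Subgroup.centralizer_le_normalizer _ hc), S, hS, hST,
    (Subgroup.centralizer _).mul_mem hxS (Subgroup.centralizer_le hST hc)⟩

theorem scalarSub_le_centralizer (hρ : Function.Injective ρ) (s : Set H) :
    scalarSub ρ ≤ Subgroup.centralizer s := fun _ hz =>
  Subgroup.mem_centralizer_iff.mpr fun g _ => scalarSub_commute hρ hz g

/-- A set closed under right multiplication by a subgroup has cardinality divisible by its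
order. -/
theorem card_dvd_of_mul_mem {G : Type*} [Group G] [Finite G] (A : Subgroup G) (s : Set G)
    (h : ∀ x ∈ s, ∀ a ∈ A, x * a ∈ s) : Nat.card A ∣ Nat.card s := by
  have hs : QuotientGroup.mk ⁻¹' (QuotientGroup.mk (s := A) '' s) = s := by
    refine Set.Subset.antisymm ?_ (Set.subset_preimage_image _ _)
    rintro y ⟨x, hx, hxy⟩
    simpa using h x hx _ (QuotientGroup.eq.mp hxy)
  refine Dvd.intro (Nat.card (QuotientGroup.mk (s := A) '' s)) ?_
  rw [← Nat.card_prod, ← Nat.card_congr (QuotientGroup.preimageMkEquivSubgroupProdSet A _), hs]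

variable [Finite H] [FiniteDimensional K V]

/-- The centralizer of a non-scalar element modulo scalars. -/
theorem card_centralizer_quotient_le {n L : ℕ} (hdim : finrank K V ≤ n)
    (hρ : Function.Injective ρ) [hZn : (scalarSub ρ).Normal] {x : H} (hx : x ∉ scalarSub ρ)
    (hL : (scalarSub ρ).relIndex (Subgroup.centralizer {x}) ≤ L) :
    Nat.card (Subgroup.centralizer {(x : H ⧸ scalarSub ρ)}) ≤ n * L := by
  have : Nontrivial V := nontrivial_of_not_mem_scalarSub hx
  set Z := scalarSub ρ
  set π := QuotientGroup.mk' Z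
  set P := (Subgroup.centralizer {(x : H ⧸ Z)}).comap π with hP
  have hPZ : ∀ a ∈ P, a * x * a⁻¹ * x⁻¹ ∈ Z := by
    intro a ha
    have h := Subgroup.mem_centralizer_singleton_iff.mp (Subgroup.mem_comap.mp ha)
    rw [← QuotientGroup.eq_one_iff]
    simp only [QuotientGroup.mk_mul, QuotientGroup.mk_inv]
    simp only [π, QuotientGroup.mk'_apply] at h
    rw [h]
    simp [mul_assoc]
  let c : P →* H :=
    { toFun := fun a => (a : H) * x * (a : H)⁻¹ * x⁻¹
      map_one' := by simp
      map_mul' := fun a b => by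
        have hb := scalarSub_commute hρ (hPZ b b.2)
        calc ((a * b : P) : H) * x * ((a * b : P) : H)⁻¹ * x⁻¹
            = ((a : H) * ((b : H) * x * (b : H)⁻¹ * x⁻¹)) * x * (a : H)⁻¹ * x⁻¹ := by
              simp [mul_assoc]
          _ = ((b : H) * x * (b : H)⁻¹ * x⁻¹) * ((a : H) * x * (a : H)⁻¹ * x⁻¹) := by
              rw [hb a]; simp [mul_assoc]
          _ = _ := (hb _).symm }
  have hker : Nat.card c.ker ≤ Nat.card (Subgroup.centralizer ({x} : Set H)) := by
    refine Nat.card_le_card_of_injective (fun a => ⟨((a : P) : H), ?_⟩) ?_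
    · rw [Subgroup.mem_centralizer_singleton_iff]
      have h := MonoidHom.mem_ker.mp a.2
      exact mul_inv_eq_iff_eq_mul.mp (mul_inv_eq_one.mp h)
    · intro a b hab
      have h := congrArg Subtype.val hab
      exact Subtype.ext (Subtype.ext h)
  have hrange : Nat.card c.range ≤ n := by
    classical
    set d := finrank K V
    have hd : 0 < d := finrank_pos
    have hroot : ∀ r : c.range, ∃ t ∈ Polynomial.nthRootsFinset d (1 : K), ρ r = t • 1 := by
      rintro ⟨_, a, rfl⟩
      obtain ⟨t, ht⟩ := hPZ a a.2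
      refine ⟨t, ?_, ht⟩
      rw [Polynomial.mem_nthRootsFinset hd]
      have h1 : LinearMap.det (ρ ((a : H) * x * (a : H)⁻¹ * x⁻¹)) = 1 := by
        simp only [map_mul]
        calc LinearMap.det (ρ (a : H)) * LinearMap.det (ρ x) * LinearMap.det (ρ (a : H)⁻¹) *
              LinearMap.det (ρ x⁻¹)
            = (LinearMap.det (ρ (a : H)) * LinearMap.det (ρ (a : H)⁻¹)) *
              (LinearMap.det (ρ x) * LinearMap.det (ρ x⁻¹)) := by ring
          _ = 1 := by
            have hh : ∀ y : H, LinearMap.det (ρ y) * LinearMap.det (ρ y⁻¹) = 1 := fun y => by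
              rw [← map_mul LinearMap.det, ← map_mul ρ, mul_inv_cancel, map_one, map_one]
            rw [hh, hh, one_mul]
      rw [ht, LinearMap.det_smul, map_one, mul_one] at h1
      exact h1
    choose f hf hfr using hroot
    have hinj : Function.Injective (fun r => (⟨f r, hf r⟩ : Polynomial.nthRootsFinset d (1 : K))) := by
      intro r s hrs
      apply Subtype.ext
      apply hρ
      rw [hfr r, hfr s, show f r = f s from congrArg Subtype.val hrs]
    refine (Nat.card_le_card_of_injective _ hinj).trans ?_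
    rw [Nat.card_eq_fintype_card, Fintype.card_coe, Polynomial.nthRootsFinset_def]
    exact ((Multiset.toFinset_card_le _).trans (Polynomial.card_nthRoots d 1)).trans hdim
  have hcardP : Nat.card c.ker * Nat.card c.range = Nat.card P := by
    rw [← Subgroup.index_ker, Subgroup.card_mul_index]
  have hPcard : Nat.card P = Nat.card Z * Nat.card (Subgroup.centralizer {(x : H ⧸ Z)}) := by
    have h1 := P.card_mul_index
    rw [Subgroup.index_comap_of_surjective _ (QuotientGroup.mk'_surjective Z)] at h1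
    have h2 := (Subgroup.centralizer {(x : H ⧸ Z)}).card_mul_index
    have h3 := Z.card_mul_index
    have h4 : Nat.card (H ⧸ Z) = Z.index := rfl
    refine Nat.eq_of_mul_eq_mul_right
      (Nat.pos_of_ne_zero (Subgroup.centralizer {(x : H ⧸ Z)}).index_ne_zero_of_finite) ?_
    rw [h1, mul_assoc, h2, h4, h3]
  have hC : Nat.card (Subgroup.centralizer ({x} : Set H)) ≤ Nat.card Z * L := by
    have hle : Z ≤ Subgroup.centralizer {x} := scalarSub_le_centralizer hρ _
    rw [← (Z.subgroupOf (Subgroup.centralizer {x})).card_mul_index,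
      Nat.card_congr (Subgroup.subgroupOfEquivOfLe hle).toEquiv]
    exact Nat.mul_le_mul_left _ hL
  refine Nat.le_of_mul_le_mul_left ?_ (Nat.card_pos : 0 < Nat.card Z)
  rw [← hPcard, ← hcardP]
  calc Nat.card c.ker * Nat.card c.range ≤ Nat.card Z * L * n :=
        Nat.mul_le_mul (hker.trans hC) hrange
    _ = Nat.card Z * (n * L) := by ring

/-- The bound in the induction step. -/
def stepBound (p B m n : ℕ) : ℕ :=
  let Q := B * B * Nat.factorial (p ^ m) * p ^ m + 1
  let L := Q ^ (n * n + 1) * p ^ m * Q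
  let b := (n * n + 1) ^ (n * n)
  max (egyptBound (2 * b) (Nat.factorial b * Nat.factorial (n * L))) (Nat.factorial (b * Q))

theorem jordanBound_step {p B m n : ℕ} [hp : Fact p.Prime]
    (hB : JordanBound.{u, v} p B m (n - 1)) : JordanBound.{u, v} p (stepBound p B m n) m n := by
  intro H _ _ K _ _ _ V _ _ _ hdim ρ hρ hm
  classical
  set Q := B * B * Nat.factorial (p ^ m) * p ^ m + 1 with hQdef
  set L := Q ^ (n * n + 1) * p ^ m * Q with hLdef
  set bN := (n * n + 1) ^ (n * n) with hbN
  have hc : CentBound ρ Q := fun x hx => by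
    obtain ⟨N, h1, h2, h3⟩ := exists_abelian_le_centralizer hB hdim ρ hρ hm x hx
    exact ⟨N, h1, h2, h3.trans (Nat.le_succ _)⟩
  set Z := scalarSub ρ with hZ
  have hZn : Z.Normal := scalarSub_normal hρ
  set g := Z.index with hg
  have hgpos : 0 < g := Nat.pos_of_ne_zero Z.index_ne_zero_of_finite
  have hG' : Nat.card (H ⧸ Z) = g := rfl
  let π : H →* H ⧸ Z := QuotientGroup.mk' Z
  -- cells
  let Ω := {T : Subgroup H // Maximal (Stable ρ p Q) T}
  letI act : MulAction H Ω :=
    { smul := fun a T => ⟨T.1.map (MulAut.conj a).toMonoidHom, maximal_map_conj hρ T.2 a⟩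
      one_smul := fun T => Subtype.ext (by
        change T.1.map (MulAut.conj (1 : H)).toMonoidHom = T.1
        ext; simp)
      mul_smul := fun a b T => Subtype.ext (by
        change T.1.map (MulAut.conj (a * b)).toMonoidHom =
          (T.1.map (MulAut.conj b).toMonoidHom).map (MulAut.conj a).toMonoidHom
        rw [Subgroup.map_map]; congr 1; ext; simp [mul_assoc]) }
  have hsmul : ∀ (a : H) (T : Ω), (a • T).1 = T.1.map (MulAut.conj a).toMonoidHom := fun _ _ => rfl
  have hstab : ∀ T : Ω, MulAction.stabilizer H T = Subgroup.normalizer (T.1 : Set H) := by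
    intro T
    ext a
    rw [MulAction.mem_stabilizer_iff, Subgroup.mem_normalizer_iff_map_conj_eq, Subtype.ext_iff,
      hsmul]
    rfl
  have : Fintype Ω := Fintype.ofFinite _
  have : Fintype (H ⧸ Z) := Fintype.ofFinite _
  have : Fintype (MulAction.orbitRel.Quotient H Ω) := Fintype.ofFinite _
  let E : Ω → Finset (H ⧸ Z) := fun T => (π '' cellSet ρ p Q T.1).toFinset
  have hsat : ∀ (T : Ω) (x : H), π x ∈ E T → x ∈ cellSet ρ p Q T.1 := by
    intro T x hx
    obtain ⟨y, hy, hyx⟩ := Set.mem_toFinset.mp hx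
    have hz : y⁻¹ * x ∈ Z := QuotientGroup.eq.mp hyx
    simpa using mul_mem_cellSet hy (scalarSub_le_centralizer hρ _ hz)
  have hone : ∀ T : Ω, (1 : H ⧸ Z) ∈ E T := fun T => Set.mem_toFinset.mpr
    ⟨1, ⟨one_mem _, T.1, T.2.1, le_rfl, one_mem _⟩, map_one π⟩
  have hconj : ∀ (a : H) (T : Ω) (y : H ⧸ Z), y ∈ E T → π a * y * (π a)⁻¹ ∈ E (a • T) := by
    intro a T y hy
    obtain ⟨x, hx, rfl⟩ := Set.mem_toFinset.mp hy
    exact Set.mem_toFinset.mpr ⟨_, conj_mem_cellSet hρ hx a, by simp⟩
  have hEcard : ∀ (a : H) (T : Ω), (E (a • T)).card = (E T).card := by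
    intro a T
    have hle : ∀ (a : H) (T : Ω), (E T).card ≤ (E (a • T)).card := fun a T =>
      Finset.card_le_card_of_injOn (fun y => π a * y * (π a)⁻¹) (fun y hy => hconj a T y hy)
        (fun y _ z _ h => by simpa using h)
    refine le_antisymm ?_ (hle a T)
    simpa using hle a⁻¹ (a • T)
  -- the index data
  let nn : Ω → ℕ := fun T => Z.relIndex (Subgroup.normalizer (T.1 : Set H))
  let e : Ω → ℕ := fun T => (E T).card
  have hZC : ∀ T : Ω, Z ≤ Subgroup.centralizer (T.1 : Set H) :=
    fun T => scalarSub_le_centralizer hρ _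
  have hnn : ∀ T : Ω, nn T = Z.relIndex (Subgroup.centralizer (T.1 : Set H)) *
      (Subgroup.centralizer (T.1 : Set H)).relIndex (Subgroup.normalizer (T.1 : Set H)) :=
    fun T => (Subgroup.relIndex_mul_relIndex _ _ _ (hZC T)
      (Subgroup.centralizer_le_normalizer _)).symm
  have hidx : ∀ T : Ω, (MulAction.stabilizer H T).index * nn T = g := by
    intro T
    rw [hstab, mul_comm]
    exact Subgroup.relIndex_mul_index ((hZC T).trans (Subgroup.centralizer_le_normalizer _))
  have hnpos : ∀ T : Ω, 0 < nn T := fun T =>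
    Nat.pos_of_ne_zero fun h => hgpos.ne' (by rw [← hidx T, h, mul_zero])
  have hb : ∀ T : Ω, (Subgroup.centralizer (T.1 : Set H)).relIndex
      (Subgroup.normalizer (T.1 : Set H)) ≤ bN :=
    fun T => relIndex_centralizer_normalizer_le hdim ρ hρ T.2.1.1
  have he2 : ∀ T : Ω, 2 ≤ e T := by
    intro T
    obtain ⟨t, htT, ht⟩ := SetLike.not_le_iff_exists.mp T.2.1.2.1
    have htC : t ∈ Subgroup.centralizer (T.1 : Set H) :=
      Subgroup.mem_centralizer_iff.mpr fun s hs => T.2.1.1.comm hs htT
    refine Finset.one_lt_card.mpr ⟨π t, Set.mem_toFinset.mpr ⟨t, ?_, rfl⟩, 1, hone T, ?_⟩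
    · simpa using mul_mem_cellSet
        (show (1 : H) ∈ cellSet ρ p Q T.1 from ⟨one_mem _, T.1, T.2.1, le_rfl, one_mem _⟩) htC
    · simpa [π, QuotientGroup.eq_one_iff] using ht
  have hcdvd : ∀ T : Ω, Z.relIndex (Subgroup.centralizer (T.1 : Set H)) ∣ e T := by
    intro T
    have h1 : Z.relIndex (Subgroup.centralizer (T.1 : Set H)) =
        Nat.card ((Subgroup.centralizer (T.1 : Set H)).map π) := by
      conv_lhs => rw [show Z = π.ker from (QuotientGroup.ker_mk' Z).symm]
      exact Subgroup.relIndex_ker _ _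
    have h2 : e T = Nat.card (E T : Set (H ⧸ Z)) := by simp [e]
    rw [h1, h2]
    refine card_dvd_of_mul_mem _ _ fun y hy a ha => ?_
    obtain ⟨c, hcT, rfl⟩ := ha
    obtain ⟨x, hx, rfl⟩ := Set.mem_toFinset.mp (Finset.mem_coe.mp hy)
    exact Finset.mem_coe.mpr (Set.mem_toFinset.mpr ⟨x * c, mul_mem_cellSet hx hcT, map_mul π x c⟩)
  -- the partition of the non-trivial elements of `H ⧸ Z`
  let C' : Finset (H ⧸ Z) := Finset.univ.biUnion fun T => (E T).erase 1
  let S' : Finset (H ⧸ Z) := (Finset.univ.erase 1) \ C'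
  have hC'sub : C' ⊆ Finset.univ.erase 1 := by
    intro y hy
    obtain ⟨T, _, hyT⟩ := Finset.mem_biUnion.mp hy
    exact Finset.mem_erase.mpr ⟨(Finset.mem_erase.mp hyT).1, Finset.mem_univ _⟩
  have hC'card : C'.card = ∑ T : Ω, (e T - 1) := by
    rw [Finset.card_biUnion]
    · exact Finset.sum_congr rfl fun T _ => Finset.card_erase_of_mem (hone T)
    · intro T₁ _ T₂ _ hne
      rw [Function.onFun, Finset.disjoint_left]
      intro y h₁ h₂
      obtain ⟨hy1, h₁⟩ := Finset.mem_erase.mp h₁
      obtain ⟨-, h₂⟩ := Finset.mem_erase.mp h₂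
      obtain ⟨x, rfl⟩ := QuotientGroup.mk'_surjective Z y
      refine hne (Subtype.ext (cell_eq_of_mem hc T₁.2 T₂.2 ?_ (hsat _ _ h₁) (hsat _ _ h₂)))
      exact fun hxZ => hy1 ((QuotientGroup.eq_one_iff x).mpr hxZ)
  have hsplit : g = 1 + ∑ T : Ω, (e T - 1) + S'.card := by
    have h1 : S'.card + C'.card = (Finset.univ.erase (1 : H ⧸ Z)).card :=
      Finset.card_sdiff_add_card_eq_card hC'sub
    rw [Finset.card_erase_of_mem (Finset.mem_univ _), Finset.card_univ,
      ← Nat.card_eq_fintype_card, hG'] at h1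
    omega
  -- divisibility of the number of small elements
  have hS'dvd : g ∣ Nat.factorial (n * L) * S'.card := by
    have hconjC : ∀ (a y : H ⧸ Z), y ∈ C' → a * y * a⁻¹ ∈ C' := by
      intro a y hy
      obtain ⟨b, rfl⟩ := QuotientGroup.mk'_surjective Z a
      obtain ⟨T, _, hyT⟩ := Finset.mem_biUnion.mp hy
      obtain ⟨hy1, hyT⟩ := Finset.mem_erase.mp hyT
      exact Finset.mem_biUnion.mpr ⟨b • T, Finset.mem_univ _,
        Finset.mem_erase.mpr ⟨by simpa using hy1, hconj b T y hyT⟩⟩
    have hmemS : ∀ (a y : H ⧸ Z), y ∈ S' → a * y * a⁻¹ ∈ S' := by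
      intro a y hy
      simp only [S', Finset.mem_sdiff, Finset.mem_erase, Finset.mem_univ, and_true] at hy ⊢
      refine ⟨by simpa using hy.1, fun h => hy.2 ?_⟩
      simpa [mul_assoc] using hconjC a⁻¹ _ h
    let f : H ⧸ Z → ℕ := fun y => if y ∈ S' then Nat.factorial (n * L) else 0
    have hf : ∀ (a : ConjAct (H ⧸ Z)) (y : H ⧸ Z), f (a • y) = f y := by
      intro a y
      have : (a • y ∈ S') ↔ y ∈ S' := by
        rw [ConjAct.smul_def]
        refine ⟨fun h => ?_, hmemS _ y⟩
        simpa [mul_assoc] using hmemS (ConjAct.ofConjAct a)⁻¹ _ h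
      simp [f, this]
    have h := dvd_sum_of_forall_dvd f hf g fun y => by
      by_cases hy : y ∈ S'
      · simp only [f, if_pos hy]
        simp only [S', Finset.mem_sdiff, Finset.mem_erase, Finset.mem_univ, and_true] at hy
        obtain ⟨x, rfl⟩ := QuotientGroup.mk'_surjective Z y
        have hxZ : x ∉ Z := fun h => hy.1 ((QuotientGroup.eq_one_iff x).mpr h)
        have hsmall : Z.relIndex (Subgroup.centralizer {x}) ≤ L := by
          by_contra hlt
          obtain ⟨T, hT, hxT⟩ := exists_cell_of_large hρ hc (Nat.succ_le_succ (Nat.zero_le _))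
            hdim hm hxZ (not_le.mp hlt)
          exact hy.2 (Finset.mem_biUnion.mpr ⟨⟨T, hT⟩, Finset.mem_univ _,
            Finset.mem_erase.mpr ⟨hy.1, Set.mem_toFinset.mpr ⟨x, hxT, rfl⟩⟩⟩)
        have hcard : Nat.card (MulAction.stabilizer (ConjAct (H ⧸ Z)) (x : H ⧸ Z)) ≤ n * L := by
          refine le_trans ?_ (card_centralizer_quotient_le (ρ := ρ) hdim hρ hxZ hsmall)
          refine Nat.card_le_card_of_injective
            (fun a => ⟨ConjAct.ofConjAct a.1, ?_⟩) ?_
          · have ha := MulAction.mem_stabilizer_iff.mp a.2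
            rw [ConjAct.smul_def] at ha
            exact Subgroup.mem_centralizer_singleton_iff.mpr (mul_inv_eq_iff_eq_mul.mp ha)
          · intro a b hab
            have h := congrArg Subtype.val hab
            exact Subtype.ext (ConjAct.ofConjAct.injective h)
        have h1 := (MulAction.stabilizer (ConjAct (H ⧸ Z)) (x : H ⧸ Z)).card_mul_index
        rw [show Nat.card (ConjAct (H ⧸ Z)) = g from hG'] at h1
        have h2 := Nat.dvd_factorial Nat.card_pos hcard
        change g ∣ (MulAction.stabilizer (ConjAct (H ⧸ Z)) (x : H ⧸ Z)).index *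
          Nat.factorial (n * L)
        calc g = (MulAction.stabilizer (ConjAct (H ⧸ Z)) (x : H ⧸ Z)).index *
              Nat.card (MulAction.stabilizer (ConjAct (H ⧸ Z)) (x : H ⧸ Z)) := by
              rw [mul_comm, h1]
          _ ∣ _ := Nat.mul_dvd_mul_left _ h2
      · simp [f, hy]
    simpa [f, Finset.sum_ite_mem, mul_comm] using h
  -- orbit representatives
  let X := MulAction.orbitRel.Quotient H Ω
  have horb : ∑ T : Ω, (e T - 1) =
      ∑ q : X, (MulAction.stabilizer H q.out).index * (e q.out - 1) := by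
    rw [sum_eq_sum_orbits (G := H) (fun T => e T - 1) (fun a T => by simp only [e, hEcard])]
    simp only [smul_eq_mul]
    convert rfl
  set D := Nat.factorial bN * Nat.factorial (n * L) with hD
  have hX : Fintype.card X ≤ 2 * bN := by
    have h1 : ∀ q : X, g ≤ 2 * bN * ((MulAction.stabilizer H q.out).index * (e q.out - 1)) := by
      intro q
      have h3 : Z.relIndex (Subgroup.centralizer (q.out.1 : Set H)) ≤ e q.out :=
        Nat.le_of_dvd (by have := he2 q.out; omega) (hcdvd q.out)
      have h4 : nn q.out ≤ 2 * bN * (e q.out - 1) := by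
        rw [hnn]
        calc _ ≤ e q.out * bN := Nat.mul_le_mul h3 (hb q.out)
          _ ≤ (2 * (e q.out - 1)) * bN :=
            Nat.mul_le_mul_right _ (by have := he2 q.out; omega)
          _ = _ := by ring
      calc g = (MulAction.stabilizer H q.out).index * nn q.out := (hidx _).symm
        _ ≤ (MulAction.stabilizer H q.out).index * (2 * bN * (e q.out - 1)) :=
          Nat.mul_le_mul_left _ h4
        _ = _ := by ring
    have h2 := Finset.sum_le_sum (s := Finset.univ) fun q _ => h1 q
    rw [Finset.sum_const, Finset.card_univ, smul_eq_mul, ← Finset.mul_sum, ← horb] at h2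
    have h3 : 2 * bN * ∑ T : Ω, (e T - 1) ≤ 2 * bN * g := Nat.mul_le_mul_left _ (by omega)
    exact Nat.le_of_mul_le_mul_right (h2.trans h3) hgpos
  have hz : ∃ z : ℤ, (D : ℚ) / g - ∑ q : X, (D : ℚ) / nn q.out = z := by
    have hne : ∀ q : X, nn q.out ∣ D * e q.out := by
      intro q
      rw [hnn, hD]
      refine (mul_dvd_mul (hcdvd q.out) (Nat.dvd_factorial ?_ (hb q.out))).trans
        (Dvd.intro (Nat.factorial (n * L)) (by ring))
      exact Nat.pos_of_ne_zero Subgroup.FiniteIndex.index_ne_zero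
    have hgS : g ∣ D * S'.card := hS'dvd.trans (Dvd.intro_left (Nat.factorial bN) (by ring))
    obtain ⟨w, hw⟩ := hgS
    choose u hu using hne
    refine ⟨(D : ℤ) - ∑ q : X, (u q : ℤ) - w, ?_⟩
    have hgq : (g : ℚ) ≠ 0 := by exact_mod_cast hgpos.ne'
    have h1 : ∀ q : X, (D : ℚ) / nn q.out = (u q : ℚ) -
        (D : ℚ) / g * (((MulAction.stabilizer H q.out).index * (e q.out - 1) : ℕ) : ℚ) := by
      intro q
      have hnq : (nn q.out : ℚ) ≠ 0 := by exact_mod_cast (hnpos q.out).ne'
      have hiq : ((MulAction.stabilizer H q.out).index : ℚ) * (nn q.out : ℚ) = g := by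
        exact_mod_cast hidx q.out
      have huq : (D : ℚ) * (e q.out : ℚ) = (nn q.out : ℚ) * (u q : ℚ) := by exact_mod_cast hu q
      have he' : 1 ≤ e q.out := le_trans (by omega) (he2 q.out)
      rw [Nat.cast_mul (α := ℚ) (MulAction.stabilizer H q.out).index, Nat.cast_sub he',
        Nat.cast_one]
      field_simp
      linear_combination ((D : ℚ) * ((e q.out : ℚ) - 1)) * (hiq) + ((g : ℚ)) * huq
    have h2 : (g : ℚ) = 1 + ((∑ q : X,
        ((MulAction.stabilizer H q.out).index * (e q.out - 1)) : ℕ) : ℚ) + (S'.card : ℚ) := by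
      rw [← horb]; exact_mod_cast hsplit
    have hwq : (D : ℚ) * (S'.card : ℚ) = (g : ℚ) * (w : ℚ) := by exact_mod_cast hw
    simp only [h1, Finset.sum_sub_distrib, ← Finset.mul_sum, ← Nat.cast_sum]
    push_cast at h2 ⊢
    field_simp
    linear_combination (-(D : ℚ)) * h2 - hwq
  have hstep : stepBound p B m n =
      max (egyptBound (2 * bN) D) (Nat.factorial (bN * Q)) := rfl
  rcases egypt (fun q : X => nn q.out) g hgpos (2 * bN) D Finset.univ
      (Nat.mul_pos (Nat.factorial_pos _) (Nat.factorial_pos _)) hX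
      (fun q _ => ⟨hnpos _, Nat.le_of_dvd hgpos (Dvd.intro_left _ (hidx q.out))⟩) hz with
    hgb | ⟨q, -, hq⟩
  · refine ⟨Z, hZn, scalarSub_isMulCommutative hρ, ?_⟩
    rw [hstep]
    exact hgb.trans (le_max_left _ _)
  · set T := q.out
    have hNtop : (Subgroup.normalizer (T.1 : Set H)).index = 1 := by
      have h := hidx T
      rw [hstab, show nn T = g from hq] at h
      exact (Nat.mul_eq_right hgpos.ne').mp h
    obtain ⟨t, htT, ht⟩ := SetLike.not_le_iff_exists.mp T.2.1.2.1
    obtain ⟨N, _, hNc, hNi⟩ := hc t ht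
    set C := Subgroup.centralizer (T.1 : Set H)
    have hCi : C.index ≤ bN := by
      rw [← Subgroup.relIndex_mul_index (Subgroup.centralizer_le_normalizer (T.1 : Set H)),
        hNtop, mul_one]
      exact hb T
    have hAi : (C ⊓ N).index ≤ bN * Q := by
      rw [← Subgroup.relIndex_mul_index (inf_le_left : C ⊓ N ≤ C), inf_comm,
        Subgroup.inf_relIndex_right, mul_comm]
      refine Nat.mul_le_mul hCi ((Subgroup.relIndex_le_of_le_right ?_
        Subgroup.FiniteIndex.index_ne_zero).trans hNi)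
      exact Subgroup.centralizer_le (Set.singleton_subset_iff.mpr htT)
    refine ⟨(C ⊓ N).normalCore, inferInstance,
      ⟨⟨fun a b => Subtype.ext (Subgroup.mul_comm_of_mem_isMulCommutative N
        (((C ⊓ N).normalCore_le a.2).2) (((C ⊓ N).normalCore_le b.2).2))⟩⟩, ?_⟩
    rw [hstep]
    refine le_trans ?_ (le_max_right _ _)
    rw [Subgroup.normalCore_eq_ker, Subgroup.index_ker]
    refine (Nat.card_le_card_of_injective _ Subtype.val_injective).trans ?_
    rw [Nat.card_perm]
    exact Nat.factorial_le hAi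

end CfsgLib.BrauerCharacters.JordanP
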